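import Mathlib

/-!
Transitive groups containing a regular cyclic subgroup of prime power order: Schur's theorem,
by counting in the orbit ring of a point stabilizer.
-/

namespace Cfsg.Agent.H82

open MulAction
open scoped Pointwise

section SRing

variable {G V : Type*} [Group G] [AddCommGroup V] [MulAction G V]

/-- `y` and `x` lie in one orbit of the stabilizer of `0`. -/
def SameClass (G : Type*) {V : Type*} [Group G] [AddCommGroup V] [MulAction G V] (x y : V) : Prop :=
  ∃ h : G, h • (0 : V) = 0 ∧ h • x = y

theorem sameClass_refl (x : V) : SameClass G x x := ⟨1, one_smul _ _, one_smul _ _⟩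

theorem sameClass_symm {x y : V} (h : SameClass G x y) : SameClass G y x := by
  obtain ⟨g, h0, hx⟩ := h
  exact ⟨g⁻¹, by rw [inv_smul_eq_iff, h0], by rw [inv_smul_eq_iff, hx]⟩

theorem sameClass_trans {x y z : V} (h : SameClass G x y) (h' : SameClass G y z) :
    SameClass G x z := by
  obtain ⟨g, h0, hx⟩ := h
  obtain ⟨k, k0, kx⟩ := h'
  exact ⟨k * g, by rw [mul_smul, h0, k0], by rw [mul_smul, hx, kx]⟩

theorem sameClass_zero {x : V} (h : SameClass G x 0) : x = 0 := by
  obtain ⟨g, h0, hx⟩ := h
  exact MulAction.injective g (hx.trans h0.symm)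

variable (htr : ∀ d : V, ∃ s : G, ∀ u : V, s • u = u + d)

include htr

theorem sameClass_diff (h : G) (u x : V) : SameClass G (x - u) (h • x - h • u) := by
  obtain ⟨s, hs⟩ := htr u
  obtain ⟨t, ht⟩ := htr (-(h • u))
  refine ⟨t * h * s, ?_, ?_⟩
  · rw [mul_smul, mul_smul, hs, ht, zero_add, add_neg_cancel]
  · rw [mul_smul, mul_smul, hs, ht, sub_add_cancel, sub_eq_add_neg]

/-- A union of classes generates a subgroup which is a block. -/
theorem smul_add_sub_mem_closure {U : Set V} (hU : ∀ x y, SameClass G x y → x ∈ U → y ∈ U)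
    {d : V} (hd : d ∈ AddSubgroup.closure U) :
    ∀ (h : G) (u : V), h • (u + d) - h • u ∈ AddSubgroup.closure U := by
  induction hd using AddSubgroup.closure_induction with
  | mem a ha =>
    intro h u
    apply AddSubgroup.subset_closure
    have := sameClass_diff htr h u (u + a)
    rw [add_sub_cancel_left] at this
    exact hU _ _ this ha
  | zero => intro h u; simp
  | add a b _ _ iha ihb =>
    intro h u
    have := AddSubgroup.add_mem _ (ihb h (u + a)) (iha h u)
    simpa [add_assoc] using this
  | neg a _ iha =>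
    intro h u
    have := AddSubgroup.neg_mem _ (iha h (u + -a))
    simpa [add_assoc] using this

/-- In a primitive action a nontrivial union of classes generates everything. -/
theorem closure_classUnion_eq_top [Finite V] (hprim : IsPreprimitive G V) {U : Set V}
    (hU : ∀ x y, SameClass G x y → x ∈ U → y ∈ U) {a : V} (ha : a ∈ U) (ha0 : a ≠ 0) :
    AddSubgroup.closure U = ⊤ := by
  set H := AddSubgroup.closure U with hH
  have hB : IsBlock G (H : Set V) := by
    rw [isBlock_iff_smul_eq_of_nonempty]
    rintro g ⟨_, ⟨b, hb, rfl⟩, hc⟩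
    have key : ∀ x ∈ H, g • x ∈ H := by
      intro x hx
      have h1 := smul_add_sub_mem_closure htr hU (AddSubgroup.sub_mem _ hx hb) g b
      rw [add_sub_cancel] at h1
      have h2 := AddSubgroup.add_mem _ h1 hc
      simpa using h2
    refine Set.eq_of_subset_of_ncard_le ?_ (le_of_eq ?_) (Set.toFinite _)
    · rintro _ ⟨x, hx, rfl⟩
      exact key x hx
    · exact (Set.ncard_image_of_injective _ (MulAction.injective g)).symm
  rcases hprim.isTrivialBlock_of_isBlock hB with h | h
  · exact absurd (h (AddSubgroup.subset_closure ha) H.zero_mem) ha0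
  · exact (AddSubgroup.eq_top_iff' _).2 fun x => by
      have := Set.mem_univ x
      rwa [← h] at this

/-- The number of `a` in a class union `T` with `a - z` again in `T` depends only on the class
of `z`. -/
theorem count_sameClass [Fintype V] {T : V → Prop} [DecidablePred T]
    (hT : ∀ x y, SameClass G x y → T x → T y) {z w : V} (hzw : SameClass G z w) :
    (Finset.univ.filter fun a : V => T a ∧ T (a - z)).card =
      (Finset.univ.filter fun a : V => T a ∧ T (a - w)).card := by
  obtain ⟨h, h0, hz⟩ := hzw
  refine Finset.card_bij (fun a _ => h • a) ?_ ?_ ?_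
  · intro a ha
    simp only [Finset.mem_filter, Finset.mem_univ, true_and] at ha ⊢
    refine ⟨hT a _ ⟨h, h0, rfl⟩ ha.1, hT _ _ ?_ ha.2⟩
    rw [← hz]
    exact sameClass_diff htr h z a
  · intro a _ b _ hab
    exact MulAction.injective h hab
  · intro b hb
    refine ⟨h⁻¹ • b, ?_, smul_inv_smul h b⟩
    simp only [Finset.mem_filter, Finset.mem_univ, true_and] at hb ⊢
    have hh0 : h⁻¹ • (0 : V) = 0 := by rw [inv_smul_eq_iff, h0]
    refine ⟨hT b _ ⟨h⁻¹, hh0, rfl⟩ hb.1, hT _ _ ?_ hb.2⟩
    have hh : h⁻¹ • w = z := by rw [← hz, inv_smul_smul]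
    rw [← hh]
    exact sameClass_diff htr h⁻¹ w b

/-- Convolution of class functions is a class function. -/
theorem coeff_mul_sameClass [Fintype V] {R : Type*} [Semiring R] (f g : AddMonoidAlgebra R V)
    (hf : ∀ x y, SameClass G x y → f.coeff x = f.coeff y)
    (hg : ∀ x y, SameClass G x y → g.coeff x = g.coeff y) :
    ∀ x y, SameClass G x y → (f * g).coeff x = (f * g).coeff y := by
  intro x y hxy
  obtain ⟨h, h0, hx⟩ := hxy
  rw [AddMonoidAlgebra.coeff_mul_apply_left, AddMonoidAlgebra.coeff_mul_apply_left,
    Finsupp.sum_fintype _ _ (fun a => zero_mul _), Finsupp.sum_fintype _ _ (fun a => zero_mul _)]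
  refine Fintype.sum_equiv (MulAction.toPerm h) _ _ fun a => ?_
  simp only [MulAction.toPerm_apply]
  rw [hf a (h • a) ⟨h, h0, rfl⟩, neg_add_eq_sub, neg_add_eq_sub, ← hx,
    hg _ _ (sameClass_diff htr h a x)]

/-- Frobenius: multiplication by `p` carries a class union to a multiset which is, mod `p`,
a class function. -/
theorem count_nsmul_sameClass [Fintype V] [DecidableEq V] (p : ℕ) [Fact p.Prime] {T : V → Prop}
    [DecidablePred T]
    (hT : ∀ x y, SameClass G x y → T x → T y) {z w : V} (hzw : SameClass G z w) :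
    ((Finset.univ.filter fun a : V => T a ∧ p • a = z).card : ZMod p) =
      ((Finset.univ.filter fun a : V => T a ∧ p • a = w).card : ZMod p) := by
  classical
  set f : AddMonoidAlgebra (ZMod p) V :=
    ∑ a ∈ Finset.univ.filter T, AddMonoidAlgebra.single a (1 : ZMod p) with hf
  have : CharP (AddMonoidAlgebra (ZMod p) V) p :=
    charP_of_injective_ringHom (f := AddMonoidAlgebra.singleZeroRingHom (R := ZMod p) (M := V))
      (fun a b hab => by
        have := congrArg (fun e => AddMonoidAlgebra.coeff e 0) hab
        simpa using this) p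
  have hco : ∀ x, f.coeff x = if T x then 1 else 0 := by
    intro x
    rw [hf, AddMonoidAlgebra.coeff_sum, Finsupp.finsetSum_apply]
    simp [AddMonoidAlgebra.coeff_single, Finsupp.single_apply, Finset.sum_ite_eq']
  have hpow : ∀ k, ∀ x y, SameClass G x y → (f ^ k).coeff x = (f ^ k).coeff y := by
    intro k
    induction k with
    | zero =>
      intro x y hxy
      rw [pow_zero, AddMonoidAlgebra.one_def, AddMonoidAlgebra.coeff_single]
      by_cases hx : x = 0
      · subst hx
        rw [sameClass_zero (sameClass_symm hxy)]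
      · have hy : y ≠ 0 := fun hy => hx (sameClass_zero (hy ▸ hxy))
        rw [Finsupp.single_eq_of_ne hx, Finsupp.single_eq_of_ne hy]
    | succ k ih =>
      rw [pow_succ]
      refine coeff_mul_sameClass htr _ _ ih fun x y hxy => ?_
      rw [hco, hco]
      by_cases hx : T x
      · rw [if_pos hx, if_pos (hT x y hxy hx)]
      · rw [if_neg hx, if_neg fun hy => hx (hT y x (sameClass_symm hxy) hy)]
  have hp : ∀ x, (f ^ p).coeff x =
      ((Finset.univ.filter fun a : V => T a ∧ p • a = x).card : ZMod p) := by
    intro x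
    rw [hf, sum_pow_char, AddMonoidAlgebra.coeff_sum, Finsupp.finsetSum_apply]
    simp only [AddMonoidAlgebra.single_pow, one_pow, AddMonoidAlgebra.coeff_single,
      Finsupp.single_apply, Finset.sum_boole, Finset.filter_filter]
  rw [← hp, ← hp]
  exact hpow p z w hzw

omit htr

theorem card_dvd_of_invariant (Q : AddSubgroup V) {A : Set V}
    (hA : ∀ a ∈ A, ∀ q ∈ Q, a + q ∈ A) : Nat.card Q ∣ A.ncard := by
  have h : (QuotientAddGroup.mk ⁻¹' ((QuotientAddGroup.mk : V → V ⧸ Q) '' A)) = A := by
    refine Set.Subset.antisymm ?_ (Set.subset_preimage_image _ _)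
    rintro x ⟨a, ha, he⟩
    rw [QuotientAddGroup.eq] at he
    simpa using hA a ha _ he
  rw [← h, ← Nat.card_coe_set_eq,
    Nat.card_congr (QuotientAddGroup.preimageMkEquivAddSubgroupProdSet _ _), Nat.card_prod]
  exact dvd_mul_right _ _

include htr

/-- Schur: a primitive group on a cyclic group of order `p ^ m`, `m ≥ 2`, containing the
translations, is doubly transitive. -/
theorem sameClass_of_preprimitive [Fintype V] [IsAddCyclic V] (p m : ℕ) [Fact p.Prime]
    (hm : 2 ≤ m) (hV : Nat.card V = p ^ m) (hprim : IsPreprimitive G V) :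
    ∀ x y : V, x ≠ 0 → y ≠ 0 → SameClass G x y := by
  classical
  have hp : p.Prime := Fact.out
  set Q : AddSubgroup V := (nsmulAddMonoidHom p : V →+ V).ker with hQdef
  have hQ : ∀ x : V, x ∈ Q ↔ p • x = 0 := fun x => AddMonoidHom.mem_ker
  have hQcard : Nat.card Q = p := by
    rw [hQdef, IsAddCyclic.card_nsmulAddMonoidHom_ker, hV]
    exact Nat.gcd_eq_right (dvd_pow_self p (by omega))
  have hQne : Q ≠ ⊤ := by
    intro h
    rw [h, AddSubgroup.card_top, hV] at hQcard
    exact absurd hQcard (Nat.ne_of_gt (by
      calc p = p ^ 1 := (pow_one p).symm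
        _ < p ^ m := Nat.pow_lt_pow_right hp.one_lt (by omega)))
  set R : AddSubgroup V := (nsmulAddMonoidHom p : V →+ V).range with hRdef
  have hRne : R ≠ ⊤ := by
    intro h
    have h1 := AddSubgroup.card_mul_index (nsmulAddMonoidHom p : V →+ V).ker
    rw [AddSubgroup.index_ker, ← hRdef, h, AddSubgroup.card_top, ← hQdef, hQcard] at h1
    have := hp.one_lt
    have := (pow_pos hp.pos m)
    nlinarith [hV]
  -- fibres of multiplication by `p` inside a class union
  have step : ∀ T : V → Prop, (∀ x y, SameClass G x y → T x → T y) →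
      ∀ t, T t → t ∉ Q → ∀ q ∈ Q, T (t + q) := by
    intro T hT
    set N : V → ℕ := fun x => (Finset.univ.filter fun a : V => T a ∧ p • a = x).card with hN
    have hmod : ∀ x, x ≠ 0 → (N x : ZMod p) = 0 := by
      by_contra hcon
      push Not at hcon
      obtain ⟨x, hx0, hx⟩ := hcon
      have htop := closure_classUnion_eq_top htr hprim
        (U := {x : V | x ≠ 0 ∧ (N x : ZMod p) ≠ 0})
        (fun a b hab ha => ⟨fun hb => ha.1 (sameClass_zero (hb ▸ hab)),
          (count_nsmul_sameClass htr p hT hab) ▸ ha.2⟩) ⟨hx0, hx⟩ hx0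
      apply hRne
      refine top_le_iff.1 (htop ▸ (AddSubgroup.closure_le _).2 ?_)
      rintro y ⟨-, hy⟩
      by_contra hyR
      apply hy
      have : N y = 0 := Finset.card_eq_zero.2 (Finset.filter_eq_empty_iff.2
        fun a _ ha => hyR ⟨a, ha.2⟩)
      rw [this, Nat.cast_zero]
    intro t ht htQ q hq
    have hne : p • t ≠ 0 := fun h => htQ ((hQ t).2 h)
    set F := Finset.univ.filter fun a : V => T a ∧ p • a = p • t with hF
    have hd : p ∣ F.card := (ZMod.natCast_eq_zero_iff _ _).1 (hmod _ hne)
    have hpos : 0 < F.card := Finset.card_pos.2 ⟨t, by simp [hF, ht]⟩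
    set C := (Finset.univ.filter fun a : V => a ∈ Q).image fun a => t + a with hC
    have hsub : F ⊆ C := by
      intro a ha
      simp only [hF, Finset.mem_filter, Finset.mem_univ, true_and] at ha
      refine Finset.mem_image.2 ⟨a - t, ?_, add_sub_cancel t a⟩
      simp [hQ, nsmul_sub, ha.2]
    have hCcard : C.card = p := by
      rw [hC, Finset.card_image_of_injective _ (add_right_injective t), ← Fintype.card_subtype,
        ← Nat.card_eq_fintype_card]
      exact hQcard
    have heq : F = C := Finset.eq_of_subset_of_card_le hsub (hCcard ▸ Nat.le_of_dvd hpos hd)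
    have : t + q ∈ F := heq ▸ Finset.mem_image.2 ⟨q, by simp [hq], rfl⟩
    exact (Finset.mem_filter.1 this).2.1
  -- every nonzero class meets `Q`
  have meetQ : ∀ x : V, x ≠ 0 → ∃ a, SameClass G x a ∧ a ∈ Q := by
    intro x hx
    by_contra hcon
    push Not at hcon
    set T : V → Prop := fun a => SameClass G x a with hTdef
    have hT : ∀ a b, SameClass G a b → T a → T b := fun a b h h' => sameClass_trans h' h
    set U : Set V := {z | ∀ a, T a → T (a - z)} with hUdef
    have hmemU : ∀ z, z ∈ U ↔
        (Finset.univ.filter fun a : V => T a ∧ T (a - z)).card =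
          (Finset.univ.filter fun a : V => T a).card := by
      intro z
      rw [← Finset.filter_filter, Finset.card_filter_eq_iff]
      simp [hUdef]
    have hU : ∀ z w, SameClass G z w → z ∈ U → w ∈ U := by
      intro z w hzw hz
      rw [hmemU] at hz ⊢
      rw [← hz, count_sameClass htr hT hzw]
    have : Nontrivial Q := by
      rw [← Finite.one_lt_card_iff_nontrivial, hQcard]; exact hp.one_lt
    obtain ⟨q, hq⟩ := exists_ne (0 : Q)
    have hQU : ∀ z ∈ Q, z ∈ U := by
      intro z hz a ha
      rw [sub_eq_add_neg]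
      exact step T hT a ha (hcon a ha) _ (Q.neg_mem hz)
    have htop := closure_classUnion_eq_top htr hprim hU (hQU q q.2)
      (fun h => hq (Subtype.ext h))
    have hall : ∀ z : V, ∀ a, T a ↔ T (a - z) := by
      intro z
      have hz : z ∈ AddSubgroup.closure U := htop ▸ AddSubgroup.mem_top z
      induction hz using AddSubgroup.closure_induction with
      | mem z hz =>
        intro a
        refine ⟨hz a, fun ha => ?_⟩
        set S := Finset.univ.filter fun b : V => T b
        have hmaps : S.image (fun b => b - z) = S := by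
          refine Finset.eq_of_subset_of_card_le ?_
            (le_of_eq (Finset.card_image_of_injective _ sub_left_injective).symm)
          intro b hb
          obtain ⟨c, hc, rfl⟩ := Finset.mem_image.1 hb
          simp only [S, Finset.mem_filter, Finset.mem_univ, true_and] at hc ⊢
          exact hz c hc
        have : a - z ∈ S.image (fun b => b - z) := by
          rw [hmaps]; simpa [S] using ha
        obtain ⟨c, hc, hca⟩ := Finset.mem_image.1 this
        rw [sub_left_inj] at hca
        subst hca
        simpa [S] using hc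
      | zero => simp
      | add u v _ _ ihu ihv => intro a; rw [ihu a, ihv (a - u), sub_sub]
      | neg u _ ihu => intro a; rw [ihu (a - -u), sub_neg_eq_add, add_sub_cancel_right]
    have h0 : T 0 := by
      have := (hall x x).1 (sameClass_refl x)
      rwa [sub_self] at this
    exact hx (sameClass_zero h0)
  -- every nonzero class leaves `Q`
  have leaveQ : ∀ x : V, x ≠ 0 → ∃ a, SameClass G x a ∧ a ∉ Q := by
    intro x hx
    by_contra hcon
    push Not at hcon
    have htop := closure_classUnion_eq_top htr hprim (U := {a | SameClass G x a})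
      (fun a b h h' => sameClass_trans h' h) (sameClass_refl x) hx
    exact hQne (top_le_iff.1 (htop ▸ (AddSubgroup.closure_le _).2 hcon))
  -- each class holds more than half of the nonzero elements of `Q`
  set S : V → Finset V :=
    fun x => Finset.univ.filter fun a => SameClass G x a ∧ a ∈ Q with hS
  have half : ∀ x : V, x ≠ 0 → p ≤ 2 * (S x).card := by
    intro x hx
    set T : V → Prop := fun a => SameClass G x a with hTdef
    have hT : ∀ a b, SameClass G a b → T a → T b := fun a b h h' => sameClass_trans h' h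
    have hT0 : ¬ T 0 := fun h => hx (sameClass_zero h)
    obtain ⟨u, hu, huQ⟩ := meetQ x hx
    obtain ⟨y, hy, hyQ⟩ := leaveQ x hx
    have hinv : ∀ a, T a → a ∉ Q → ∀ q ∈ Q, T (a + q) ∧ a + q ∉ Q := fun a ha haQ q hq =>
      ⟨step T hT a ha haQ q hq, fun h => haQ (by simpa using Q.sub_mem h hq)⟩
    have hdvd : ∀ P : V → Prop, (∀ a, P a → ∀ q ∈ Q, P (a + q)) →
        p ∣ (Finset.univ.filter P).card := by
      intro P hP
      have := card_dvd_of_invariant Q (A := {a | P a}) hP
      rw [hQcard] at this
      rwa [← Set.ncard_coe_finset, Finset.coe_filter_univ]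
    -- the count at `u`
    have hNu : (Finset.univ.filter fun a : V => T a ∧ T (a - u)).card =
        ((S x).filter fun a => T (a - u)).card +
          (Finset.univ.filter fun a : V => T a ∧ a ∉ Q).card := by
      rw [← Finset.card_filter_add_card_filter_not (p := fun a => a ∈ Q)]
      congr 1
      · congr 1; ext a; simp [hS, hTdef]; tauto
      · congr 1; ext a
        simp only [Finset.mem_filter, Finset.mem_univ, true_and]
        refine ⟨fun h => ⟨h.1.1, h.2⟩, fun h => ⟨⟨h.1, ?_⟩, h.2⟩⟩
        rw [sub_eq_add_neg]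
        exact (hinv a h.1 h.2 _ (Q.neg_mem huQ)).1
    have hc : ((S x).filter fun a => T (a - u)).card < (S x).card := by
      refine Finset.card_lt_card (Finset.filter_ssubset.2 ⟨u, ?_, ?_⟩)
      · simp [hS]; exact ⟨hu, huQ⟩
      · rwa [sub_self]
    -- the count at `y`
    have hy' : ∀ q ∈ Q, T (y + q) := fun q hq => (hinv y hy hyQ q hq).1
    have hNy : ∃ k, (Finset.univ.filter fun a : V => T a ∧ T (a - y)).card =
        (if T (-y) then (S x).card else 0) + (S x).card + p * k := by
      obtain ⟨k, hk⟩ := hdvd (fun a => T a ∧ a ∉ Q ∧ T (a - y) ∧ a - y ∉ Q) (by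
        rintro a ⟨h1, h2, h3, h4⟩ q hq
        obtain ⟨h5, h6⟩ := hinv a h1 h2 q hq
        obtain ⟨h7, h8⟩ := hinv (a - y) h3 h4 q hq
        rw [sub_add_eq_add_sub] at h7 h8
        exact ⟨h5, h6, h7, h8⟩)
      refine ⟨k, ?_⟩
      rw [← hk, ← Finset.card_filter_add_card_filter_not (p := fun a => a ∈ Q), add_assoc]
      congr 1
      · -- `a ∈ Q`
        have key : ∀ a, a ∈ Q → (T (a - y) ↔ T (-y)) := by
          intro a ha
          have hyQ' : -y ∉ Q := fun h => hyQ (by simpa using Q.neg_mem h)
          constructor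
          · intro h
            have h' : a - y ∉ Q := fun h' => hyQ (by simpa using Q.sub_mem ha h')
            have := (hinv _ h h' _ (Q.neg_mem ha)).1
            simpa [sub_add_eq_add_sub] using this
          · intro h
            have := (hinv _ h hyQ' a ha).1
            rwa [neg_add_eq_sub] at this
        split_ifs with hny
        · congr 1; ext a
          simp only [hS, Finset.mem_filter, Finset.mem_univ, true_and]
          exact ⟨fun h => ⟨h.1.1, h.2⟩, fun h => ⟨⟨h.1, (key a h.2).2 hny⟩, h.2⟩⟩
        · rw [Finset.card_eq_zero, Finset.filter_eq_empty_iff]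
          intro a ha haQ
          simp only [Finset.mem_filter, Finset.mem_univ, true_and] at ha
          exact hny ((key a haQ).1 ha.2)
      · rw [← Finset.card_filter_add_card_filter_not (p := fun a => a - y ∈ Q)]
        congr 1
        · refine Finset.card_bij (fun a _ => a - y) ?_ (fun a _ b _ h => sub_left_injective h) ?_
          · intro a ha
            simp only [hS, Finset.mem_filter, Finset.mem_univ, true_and] at ha ⊢
            exact ⟨ha.1.1.2, ha.2⟩
          · intro b hb
            simp only [hS, Finset.mem_filter, Finset.mem_univ, true_and] at hb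
            refine ⟨y + b, ?_, add_sub_cancel_left y b⟩
            simp only [Finset.mem_filter, Finset.mem_univ, true_and, add_sub_cancel_left]
            exact ⟨⟨⟨hy' b hb.2, hb.1⟩, (hinv y hy hyQ b hb.2).2⟩, hb.2⟩
        · congr 1; ext a; simp; tauto
    obtain ⟨k, hk⟩ := hNy
    have heq := count_sameClass htr hT (sameClass_trans (sameClass_symm hu) hy)
    obtain ⟨w, hw⟩ := hdvd (fun a => T a ∧ a ∉ Q) fun a ha q hq => hinv a ha.1 ha.2 q hq
    rw [hNu, hk] at heq
    have hw' : (Finset.univ.filter fun a => T a ∧ a ∉ Q).card = p * w := by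
      convert hw
    simp only [hw'] at heq
    by_contra hlt
    push Not at hlt
    have hmod : ((S x).filter fun a => T (a - u)).card % p =
        ((if T (-y) then (S x).card else 0) + (S x).card) % p := by
      have := congrArg (· % p) heq
      simpa [Nat.add_mul_mod_self_left] using this
    rw [Nat.mod_eq_of_lt (by omega), Nat.mod_eq_of_lt (by split_ifs <;> omega)] at hmod
    split_ifs at hmod <;> omega
  -- so there is only one nonzero class
  intro x y hx hy
  by_contra hne
  have hdisj : Disjoint (S x) (S y) := by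
    rw [Finset.disjoint_left]
    intro a ha hb
    simp only [hS, Finset.mem_filter, Finset.mem_univ, true_and] at ha hb
    exact hne (sameClass_trans ha.1 (sameClass_symm hb.1))
  have hle : (S x ∪ S y).card < p := by
    have hlt : S x ∪ S y ⊂ Finset.univ.filter (fun a : V => a ∈ Q) := by
      refine Finset.ssubset_iff_subset_ne.2 ⟨?_, fun h => ?_⟩
      · intro a ha
        simp only [hS, Finset.mem_union, Finset.mem_filter, Finset.mem_univ, true_and] at ha ⊢
        tauto
      · have : (0 : V) ∈ S x ∪ S y := h ▸ by simp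
        simp only [hS, Finset.mem_union, Finset.mem_filter, Finset.mem_univ, true_and] at this
        rcases this with h1 | h1
        · exact hx (sameClass_zero h1.1)
        · exact hy (sameClass_zero h1.1)
    have := Finset.card_lt_card hlt
    rwa [← Fintype.card_subtype, ← Nat.card_eq_fintype_card, hQcard] at this
  rw [Finset.card_union_of_disjoint hdisj] at hle
  have := half x hx
  have := half y hy
  omega

end SRing

/-- Schur's theorem on transitive groups with a full cycle of prime power length `p ^ m`,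
`m ≥ 2`, which are not doubly transitive. -/
theorem schur_prime_power_cycle {G Ω : Type*} [Group G] [MulAction G Ω] [Fintype Ω]
    (p m : ℕ) (hp : p.Prime) (hm : 2 ≤ m) (hΩ : Fintype.card Ω = p ^ m)
    (htr : IsPretransitive G Ω) (h2 : ¬ IsMultiplyPretransitive G Ω 2)
    (g : G) (hg : orderOf g = p ^ m) (hmove : ∃ α : Ω, g ^ p ^ (m - 1) • α ≠ α) :
    ¬ IsPreprimitive G Ω ∧
      ¬ IsPretransitive (Subgroup.normalClosure ({g ^ (p ^ (m - 1))} : Set G)) Ω := by
  classical
  have := Fact.mk hp
  have : NeZero (p ^ m) := ⟨pow_ne_zero _ hp.ne_zero⟩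
  obtain ⟨α, hα⟩ := hmove
  have hper : period g α = p ^ m := by
    obtain ⟨k, rfl⟩ : ∃ k, m = k + 1 := ⟨m - 1, by omega⟩
    refine Nat.eq_prime_pow_of_dvd_least_prime_pow hp ?_ (hg ▸ period_dvd_orderOf g α)
    rw [← pow_smul_eq_iff_period_dvd]
    simpa using hα
  have hbij : Function.Bijective (fun i : ZMod (p ^ m) => g ^ i.val • α) := by
    rw [Fintype.bijective_iff_injective_and_card]
    refine ⟨fun i j hij => ?_, by simp [hΩ]⟩
    wlog hle : i.val ≤ j.val generalizing i j
    · exact (this j i hij.symm (by omega)).symm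
    apply ZMod.val_injective
    obtain ⟨d, hd⟩ := Nat.exists_eq_add_of_le hle
    simp only at hij
    rw [hd, pow_add, mul_smul, smul_left_cancel_iff, eq_comm, pow_smul_eq_iff_period_dvd,
      hper] at hij
    have hlt : j.val < p ^ m := ZMod.val_lt j
    rcases Nat.eq_zero_or_pos d with rfl | hpos
    · simpa using hd.symm
    · exact absurd (Nat.le_of_dvd hpos hij) (by omega)
  set e : ZMod (p ^ m) ≃ Ω := Equiv.ofBijective _ hbij with he
  let inst : MulAction G (ZMod (p ^ m)) :=
    { smul := fun h i => e.symm (h • e i)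
      one_smul := fun i => show e.symm ((1 : G) • e i) = i by simp
      mul_smul := fun a b i => show e.symm ((a * b) • e i) = e.symm (a • e (e.symm (b • e i))) by
        simp [mul_smul] }
  have hsm : ∀ (h : G) (i : ZMod (p ^ m)), h • i = e.symm (h • e i) := fun _ _ => rfl
  have htrans : ∀ d : ZMod (p ^ m), ∃ s : G, ∀ u, s • u = u + d := by
    intro d
    refine ⟨g ^ d.val, fun u => ?_⟩
    rw [hsm, Equiv.symm_apply_eq, he, Equiv.ofBijective_apply, Equiv.ofBijective_apply,
      ← mul_smul, ← pow_add, ZMod.val_add, ← pow_mod_orderOf g (_ + _), hg, add_comm]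
  have hnp : ¬ IsPreprimitive G Ω := by
    intro hprim
    have hprimV : IsPreprimitive G (ZMod (p ^ m)) :=
      IsPreprimitive.of_surjective (f := ({ toFun := e.symm
                                            map_smul' := fun h a => by simp [hsm] } :
        Ω →[G] ZMod (p ^ m))) e.symm.surjective
    have h0 := sameClass_of_preprimitive htrans p m hm (Nat.card_zmod _) hprimV
    apply h2
    rw [is_two_pretransitive_iff]
    intro a b c d hab hcd
    obtain ⟨s, hs⟩ := htrans (-e.symm a)
    obtain ⟨t, ht⟩ := htrans (e.symm c)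
    obtain ⟨h, hh0, hh⟩ := h0 (e.symm b - e.symm a) (e.symm d - e.symm c)
      (sub_ne_zero.2 fun h => hab (e.symm.injective h).symm)
      (sub_ne_zero.2 fun h => hcd (e.symm.injective h).symm)
    have hsm' : ∀ (k : G) (x : Ω), e.symm (k • x) = k • e.symm x := fun k x => by simp [hsm]
    refine ⟨t * h * s, e.symm.injective ?_, e.symm.injective ?_⟩
    · rw [hsm', mul_smul, mul_smul, hs, add_neg_cancel, hh0, ht, zero_add]
    · rw [hsm', mul_smul, mul_smul, hs, ← sub_eq_add_neg, hh, ht, sub_add_cancel]
  refine ⟨hnp, fun hN => ?_⟩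
  obtain ⟨B₀, hB₀, hB₀nt⟩ : ∃ B : Set Ω, IsBlock G B ∧ ¬ IsTrivialBlock B := by
    by_contra hcon
    push Not at hcon
    exact hnp { toIsPretransitive := htr, isTrivialBlock_of_isBlock := fun h => hcon _ h }
  rw [IsTrivialBlock, not_or] at hB₀nt
  obtain ⟨b, hb, b', hb', hbb⟩ := Set.not_subsingleton_iff.1 hB₀nt.1
  -- move the block to contain `e 0`
  obtain ⟨k, hk⟩ := exists_smul_eq G b (e 0)
  set B : Set (ZMod (p ^ m)) := e ⁻¹' (k • B₀) with hBdef
  have hB0 : (0 : ZMod (p ^ m)) ∈ B := ⟨b, hb, hk⟩
  have hcl : ∀ (h : G) (x : ZMod (p ^ m)), x ∈ B → h • x ∈ B → ∀ y ∈ B, h • y ∈ B := by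
    intro h x hx hhx y hy
    have hblk : IsBlock G (k • B₀) := hB₀.translate k
    have heq : h • (k • B₀) = k • B₀ :=
      (isBlock_iff_smul_eq_of_nonempty.1 hblk) ⟨h • e x, ⟨e x, hx, rfl⟩,
        by simpa [hBdef, hsm] using hhx⟩
    show e (h • y) ∈ k • B₀
    rw [hsm, Equiv.apply_symm_apply, ← heq]
    exact Set.smul_mem_smul_set hy
  -- the subgroup of periods of `B` contains the socle
  set q : ZMod (p ^ m) := ((p ^ (m - 1) : ℕ) : ZMod (p ^ m)) with hq
  have hqval : q.val = p ^ (m - 1) :=
    ZMod.val_natCast_of_lt (Nat.pow_lt_pow_right hp.one_lt (by omega))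
  have hBadd : ∀ d ∈ B, ∀ x ∈ B, x + d ∈ B := by
    intro d hd x hx
    obtain ⟨s, hs⟩ := htrans d
    rw [← hs]
    exact hcl s 0 hB0 (by rw [hs, zero_add]; exact hd) x hx
  have hBn : ∀ d ∈ B, ∀ j : ℕ, j • d ∈ B := by
    intro d hd j
    induction j with
    | zero => simpa using hB0
    | succ j ih => rw [succ_nsmul]; exact hBadd d hd _ ih
  have hqB : q ∈ B := by
    obtain ⟨d, hd, hd0⟩ : ∃ d ∈ B, d ≠ 0 := by
      by_contra hcon
      push Not at hcon
      apply hbb
      have h1 := hcon (e.symm (k • b)) (by simp [hBdef, Set.smul_mem_smul_set hb])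
      have h2 := hcon (e.symm (k • b')) (by simp [hBdef, Set.smul_mem_smul_set hb'])
      simpa using h1.trans h2.symm
    have hdv : d.val ≠ 0 := fun h => hd0 ((ZMod.val_eq_zero d).1 h)
    have hlt : d.val < p ^ m := ZMod.val_lt d
    have hgcd : Nat.gcd d.val (p ^ m) ∣ p ^ (m - 1) := by
      obtain ⟨i, hi, hie⟩ := (Nat.dvd_prime_pow hp).1 (Nat.gcd_dvd_right d.val (p ^ m))
      rw [hie]
      refine pow_dvd_pow p ?_
      by_contra hcon
      have : i = m := by omega
      subst this
      have := Nat.le_of_dvd (Nat.pos_of_ne_zero hdv) (hie ▸ Nat.gcd_dvd_left d.val (p ^ i))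
      omega
    obtain ⟨c, hc⟩ := hgcd
    have hbz : ((Nat.gcd d.val (p ^ m) : ℕ) : ℤ) =
        d.val * Nat.gcdA d.val (p ^ m) + (p ^ m : ℕ) * Nat.gcdB d.val (p ^ m) :=
      Nat.gcd_eq_gcd_ab _ _
    have hcast := congrArg (fun z : ℤ => (z : ZMod (p ^ m))) hbz
    simp only [Int.cast_add, Int.cast_mul, Int.cast_natCast, ZMod.natCast_self, zero_mul,
      add_zero, ZMod.natCast_zmod_val] at hcast
    have : q = ((c : ZMod (p ^ m)) * (Nat.gcdA d.val (p ^ m) : ZMod (p ^ m))).val • d := by
      rw [hq, hc, Nat.cast_mul, hcast, nsmul_eq_mul, ZMod.natCast_zmod_val]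
      ring
    rw [this]
    exact hBn d hd _
  -- so the `q`-translation fixes every translate of the block
  have hfix : ∀ h : G, ∀ x ∈ B, g ^ (p ^ (m - 1)) • (h • x) ∈ (fun y => h • y) '' B := by
    intro h x hx
    have hz : ∀ u : ZMod (p ^ m), g ^ (p ^ (m - 1)) • u = u + q := by
      intro u
      rw [hsm, Equiv.symm_apply_eq, he, Equiv.ofBijective_apply, Equiv.ofBijective_apply,
        ← mul_smul, ← pow_add, ZMod.val_add, hqval, ← pow_mod_orderOf g (_ + _), hg, add_comm]
    obtain ⟨s, hs⟩ := htrans (h • x)
    refine ⟨h⁻¹ • (s • q), ?_, ?_⟩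
    · rw [← mul_smul]
      refine hcl (h⁻¹ * s) 0 hB0 ?_ q hqB
      rw [mul_smul, hs, zero_add, inv_smul_smul]
      exact hx
    · show h • h⁻¹ • s • q = _
      rw [smul_inv_smul, hs, hz, add_comm]
  have hle : ∀ w ∈ Subgroup.normalClosure ({g ^ (p ^ (m - 1))} : Set G),
      ∀ x ∈ B, w • x ∈ B := by
    intro w hw
    induction hw using Subgroup.closure_induction with
    | mem w hw =>
      intro x hx
      obtain ⟨z, hz, hzw⟩ := Group.mem_conjugatesOfSet_iff.1 hw
      rw [Set.mem_singleton_iff] at hz
      subst hz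
      obtain ⟨c, rfl⟩ := isConj_iff.1 hzw
      obtain ⟨y, hy, hye⟩ := hfix c⁻¹ x hx
      rw [mul_smul, mul_smul, ← hye, smul_inv_smul]
      exact hy
    | one => intro x hx; rwa [one_smul]
    | mul u v _ _ ihu ihv => intro x hx; rw [mul_smul]; exact ihu _ (ihv x hx)
    | inv u _ ih =>
      intro x hx
      have him : (fun y => u • y) '' B = B := Set.eq_of_subset_of_ncard_le
        (Set.image_subset_iff.2 ih) (le_of_eq
          (Set.ncard_image_of_injective _ (MulAction.injective u)).symm) (Set.toFinite _)
      obtain ⟨y, hy, rfl⟩ := him.symm ▸ hx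
      rwa [inv_smul_smul]
  apply hB₀nt.2
  have hall : ∀ x : Ω, x ∈ k • B₀ := by
    intro x
    obtain ⟨⟨w, hw⟩, hwx⟩ := hN.exists_smul_eq (e 0) x
    have := hle w hw 0 hB0
    have h' : e (w • (0 : ZMod (p ^ m))) ∈ k • B₀ := this
    rwa [hsm, Equiv.apply_symm_apply, show w • e 0 = x from hwx] at h'
  ext x
  simp only [Set.mem_univ, iff_true]
  exact (Set.smul_mem_smul_set_iff).1 (hall (k • x))

end Cfsg.Agent.H82
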