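import Cfsg.Agent.H82.Covers

/-!
Complex projective representations and Schur covering groups.
-/

set_option autoImplicit false

universe u v w u'

open scoped commutatorElement

namespace Cfsg.Agent.H82

variable {G : Type u} [Group G]

/-- Homomorphisms into a divisible abelian group extend from subgroups. -/
theorem exists_extend_of_divisible {V : Type v} {Z : Type w} [CommGroup V] [CommGroup Z]
    (hZ : ∀ (n : ℕ), n ≠ 0 → ∀ z : Z, ∃ w : Z, w ^ n = z) (H : Subgroup V) (f : H →* Z) :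
    ∃ g : V →* Z, ∀ h : H, g h = f h := by
  have : ∀ n : ℕ, n ≠ 0 → Function.Surjective fun a : Additive Z => n • a := fun n hn a => by
    obtain ⟨w, hw⟩ := hZ n hn (Additive.toMul a)
    exact ⟨Additive.ofMul w, by show Additive.ofMul (w ^ n) = a; rw [hw]; rfl⟩
  let _ : DivisibleBy (Additive Z) ℕ := divisibleByOfSMulRightSurj _ _ fun {n} hn => this n hn
  let _ : DivisibleBy (Additive Z) ℤ := AddGroup.divisibleByIntOfDivisibleByNat (Additive Z)
  obtain ⟨g, hg⟩ := (Module.Baer.of_divisible (Additive Z)).extension_property_addMonoidHom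
    (MonoidHom.toAdditive H.subtype) (show Function.Injective (Additive.ofMul ∘ H.subtype ∘
      Additive.toMul) from Additive.ofMul.injective.comp
        (H.subtype_injective.comp Additive.toMul.injective)) (MonoidHom.toAdditive f)
  exact ⟨MonoidHom.toAdditive.symm g, fun h =>
    congrArg Additive.toMul (DFunLike.congr_fun hg (Additive.ofMul h))⟩

/-- Every element of the centre of `GL n ℂ` has roots of all orders. -/
theorem center_GL_root (n k : ℕ) (hk : k ≠ 0) (z : Subgroup.center (GL (Fin n) ℂ)) :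
    ∃ w : Subgroup.center (GL (Fin n) ℂ), w ^ k = z := by
  obtain ⟨c, hc⟩ : (z : GL (Fin n) ℂ) ∈ (Matrix.GeneralLinearGroup.scalar (Fin n)).range :=
    Matrix.GeneralLinearGroup.center_eq_range_scalar (n := Fin n) (R := ℂ) ▸ z.2
  obtain ⟨d, hd⟩ := IsAlgClosed.exists_pow_nat_eq (c : ℂ) (Nat.pos_of_ne_zero hk)
  have hd0 : d ≠ 0 := fun h => c.ne_zero (by rw [← hd, h, zero_pow hk])
  refine ⟨⟨Matrix.GeneralLinearGroup.scalar (Fin n) (Units.mk0 d hd0),
    (Matrix.GeneralLinearGroup.center_eq_range_scalar (n := Fin n) (R := ℂ)).ge ⟨_, rfl⟩⟩,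
    Subtype.ext ?_⟩
  rw [SubmonoidClass.coe_pow, ← hc, ← map_pow]
  exact congrArg _ (Units.ext (by rw [Units.val_pow_eq_pow_val]; exact hd))

/-- Projective representations lift to stem extensions whose kernel is as big as the
multiplier. -/
theorem exists_lift_to_cover [Finite G] {Γ : Type v} [Group Γ] {σ : Γ →* G}
    (hσ : Cfsg.IsStemExtension σ) (hk : Nat.card σ.ker = Nat.card (Multiplier G)) (n : ℕ)
    (γ : G →* (GL (Fin n) ℂ ⧸ Subgroup.center (GL (Fin n) ℂ))) :
    ∃ ρ : Γ →* GL (Fin n) ℂ,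
      (QuotientGroup.mk' (Subgroup.center (GL (Fin n) ℂ))).comp ρ = γ.comp σ := by
  let Z := Subgroup.center (GL (Fin n) ℂ)
  let q := QuotientGroup.mk' Z
  have hq : Function.Surjective q := QuotientGroup.mk'_surjective Z
  choose lift hlift using hq
  let f : FreeGroup G →* GL (Fin n) ℂ := FreeGroup.lift fun x => lift (γ x)
  have hf : q.comp f = γ.comp (tautPres G) := FreeGroup.ext_hom _ _ fun x => by
    simp [f, hlift]
  have hle : relCore (tautPres G) ≤ f.ker := by
    rw [Subgroup.commutator_le]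
    intro a ha b _
    have hfa : f a ∈ Z := by
      rw [← QuotientGroup.eq_one_iff]
      have := DFunLike.congr_fun hf a
      simpa [q, MonoidHom.mem_ker.mp ha] using this
    rw [MonoidHom.mem_ker, map_commutatorElement, commutatorElement_eq_one_iff_mul_comm]
    exact (Subgroup.mem_center_iff.mp hfa (f b)).symm
  let ψ : Cov (tautPres G) →* GL (Fin n) ℂ := QuotientGroup.lift _ f hle
  have hψ : ∀ x, q (ψ x) = γ (covHom (tautPres G) x) := by
    intro x
    obtain ⟨y, rfl⟩ := QuotientGroup.mk'_surjective (relCore (tautPres G)) x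
    exact DFunLike.congr_fun hf y
  obtain ⟨φ, hφ⟩ := exists_covLift (tautPres G) σ hσ.1 hσ.2.1
  obtain ⟨hS1, hS2⟩ := covLift_complement hσ hk hφ
  have hSle : φ.ker ≤ (covHom (tautPres G)).ker := hS2 ▸ le_sup_left
  obtain ⟨e, he⟩ := complement_covAb hS1 hS2
  open scoped IsMulCommutative in
  let g : covAbKer G →* Z := ((ψ.domRestrict φ.ker).codRestrict Z fun s => by
      rw [← QuotientGroup.eq_one_iff]
      show q (ψ (s : Cov (tautPres G))) = 1
      rw [hψ, MonoidHom.mem_ker.mp (hSle s.2), map_one]).comp e.symm.toMonoidHom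
  open scoped IsMulCommutative in
  obtain ⟨δ₀, hδ₀⟩ := exists_extend_of_divisible (center_GL_root n) (covAbKer G) g
  open scoped IsMulCommutative in
  let δ : Cov (tautPres G) →* Z := δ₀.comp (covAb (tautPres G))
  have hδ : ∀ s : φ.ker, (δ s : GL (Fin n) ℂ) = ψ s := by
    intro s
    show (δ₀ (covAb (tautPres G) (s : Cov (tautPres G))) : GL (Fin n) ℂ) = _
    rw [← he s, hδ₀]
    show ψ (e.symm (e s) : Cov (tautPres G)) = _
    rw [MulEquiv.symm_apply_apply]
  let ψ' : Cov (tautPres G) →* GL (Fin n) ℂ :=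
    { toFun := fun x => ψ x * (δ x : GL (Fin n) ℂ)⁻¹
      map_one' := by simp
      map_mul' := fun x y => by
        have hz := Subgroup.mem_center_iff.mp (Z.inv_mem (δ x).2)
        rw [map_mul, map_mul, Subgroup.coe_mul, mul_inv_rev]
        calc ψ x * ψ y * ((δ y : GL (Fin n) ℂ)⁻¹ * (δ x : GL (Fin n) ℂ)⁻¹)
            = ψ x * ((ψ y * (δ y : GL (Fin n) ℂ)⁻¹) * (δ x : GL (Fin n) ℂ)⁻¹) := by group
          _ = ψ x * ((δ x : GL (Fin n) ℂ)⁻¹ * (ψ y * (δ y : GL (Fin n) ℂ)⁻¹)) := by rw [hz]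
          _ = _ := by group }
  have hker : φ.ker ≤ ψ'.ker := fun x hx => by
    show ψ x * (δ x : GL (Fin n) ℂ)⁻¹ = 1
    rw [hδ ⟨x, hx⟩]
    exact mul_inv_cancel _
  have hsurj : Function.Surjective φ := surjective_of_stem hσ φ (by
    rw [hφ]; exact covHom_surjective tautPres_surjective)
  refine ⟨φ.liftOfSurjective hsurj ⟨ψ', hker⟩,
    (MonoidHom.cancel_right hsurj).mp (MonoidHom.ext fun x => ?_)⟩
  show q (φ.liftOfSurjective hsurj ⟨ψ', hker⟩ (φ x)) = γ (σ (φ x))
  rw [MonoidHom.liftOfRightInverse_comp_apply, ← MonoidHom.comp_apply σ, hφ, ← hψ]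
  show q (ψ x * (δ x : GL (Fin n) ℂ)⁻¹) = q (ψ x)
  rw [map_mul, show q (δ x : GL (Fin n) ℂ)⁻¹ = 1 from
    (QuotientGroup.eq_one_iff _).mpr (Z.inv_mem (δ x).2), mul_one]

/-- The monomial representation induced from a character of the central kernel. -/
theorem exists_monomial_rep [Finite G] {Γ : Type v} [Group Γ] {σ : Γ →* G}
    (hσ : Function.Surjective σ) (hc : σ.ker ≤ Subgroup.center Γ) (χ : σ.ker →* ℂˣ) :
    ∃ (n : ℕ) (ρ : Γ →* GL (Fin n) ℂ), 0 < n ∧
      ∀ z : σ.ker, ρ z = Matrix.GeneralLinearGroup.scalar (Fin n) (χ z) := by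
  classical
  have : Fintype G := Fintype.ofFinite G
  choose s hs using hσ
  let c : Γ → G → σ.ker := fun g q =>
    ⟨(s (σ g * q))⁻¹ * (g * s q), by simp [MonoidHom.mem_ker, hs]⟩
  have hc1 : ∀ g h q, c (g * h) q = c g (σ h * q) * c h q := by
    intro g h q
    refine Subtype.ext ?_
    show (s (σ (g * h) * q))⁻¹ * (g * h * s q) =
      (s (σ g * (σ h * q)))⁻¹ * (g * s (σ h * q)) * ((s (σ h * q))⁻¹ * (h * s q))
    rw [map_mul, mul_assoc (σ g)]
    group
  let m : Γ → Matrix G G ℂ := fun g => Matrix.of fun i j =>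
    if i = σ g * j then (χ (c g j) : ℂ) else 0
  have hmz : ∀ z : σ.ker, m z = Matrix.scalar G (χ z : ℂ) := by
    intro z
    have hz : ∀ q, c z q = z := fun q => Subtype.ext (by
      show (s (σ z * q))⁻¹ * ((z : Γ) * s q) = z
      rw [MonoidHom.mem_ker.mp z.2, one_mul, ← Subgroup.mem_center_iff.mp (hc z.2) (s q),
        inv_mul_cancel_left])
    ext i j
    simp only [m, Matrix.of_apply, MonoidHom.mem_ker.mp z.2, one_mul, hz, Matrix.scalar_apply,
      Matrix.diagonal_apply]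
  let ρ : Γ →* Matrix G G ℂ :=
    { toFun := m
      map_one' := by
        rw [← OneMemClass.coe_one σ.ker, hmz, map_one, Units.val_one, map_one]
      map_mul' := fun g h => by
        ext i j
        simp only [m, Matrix.of_apply, Matrix.mul_apply]
        rw [Finset.sum_eq_single (σ h * j) (fun k _ hk => by simp [hk]) (by simp)]
        simp only [map_mul, mul_assoc, if_true]
        by_cases hi : i = σ g * (σ h * j)
        · simp only [hi, if_true]
          rw [hc1, map_mul, Units.val_mul]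
        · simp [hi] }
  let r : Γ →* Matrix (Fin (Fintype.card G)) (Fin (Fintype.card G)) ℂ :=
    (Matrix.reindexAlgEquiv ℂ ℂ (Fintype.equivFin G)).toAlgHom.toRingHom.toMonoidHom.comp ρ
  refine ⟨Fintype.card G, r.toHomUnits, Fintype.card_pos, fun z => Units.ext ?_⟩
  show Matrix.reindexAlgEquiv ℂ ℂ (Fintype.equivFin G) (m z) = Matrix.scalar _ (χ z : ℂ)
  rw [hmz, Matrix.scalar_apply, Matrix.scalar_apply, Matrix.reindexAlgEquiv_apply,
    Matrix.reindex_apply, Matrix.submatrix_diagonal_equiv]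
  rfl

/-- A stem extension along which all projective representations lift has a kernel as big as
the multiplier. -/
theorem multiplier_of_lifts [Finite G] {Γ : Type v} [Group Γ] {σ : Γ →* G}
    (hσ : Cfsg.IsStemExtension σ)
    (hlift : ∀ (n : ℕ) (γ : G →* (GL (Fin n) ℂ ⧸ Subgroup.center (GL (Fin n) ℂ))),
      ∃ ρ : Γ →* GL (Fin n) ℂ,
        (QuotientGroup.mk' (Subgroup.center (GL (Fin n) ℂ))).comp ρ = γ.comp σ) :
    Nonempty (Multiplier G ≃* σ.ker) := by
  have := multSub_finite (tautPres G)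
  obtain ⟨φ, hφ⟩ := exists_covLift (tautPres G) σ hσ.1 hσ.2.1
  have h := covLift_map_multSub tautPres_surjective hσ.2.1 hφ
  rw [inf_eq_left.mpr hσ.2.2] at h
  let f : multSub (tautPres G) →* σ.ker :=
    (φ.domRestrict _).codRestrict _ fun m => h.le ⟨m, m.2, rfl⟩
  have hf : Function.Surjective f := fun z => by
    obtain ⟨m, hm, hmz⟩ := h.ge z.2
    exact ⟨⟨m, hm⟩, Subtype.ext hmz⟩
  refine ⟨MulEquiv.ofBijective f ⟨(injective_iff_map_eq_one f).mpr fun m hm => ?_, hf⟩⟩
  by_contra hne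
  obtain ⟨χ₀, hχ₀⟩ := CommGroup.exists_apply_ne_one_of_hasEnoughRootsOfUnity (Multiplier G) ℂ hne
  obtain ⟨S, -, hS1, hS2⟩ := exists_complement (tautPres G) _ le_rfl le_sup_left
  obtain ⟨Γ₀, _, _, σ₀, ψ, hσ₀, hψs, hσψ, -, e, he⟩ :=
    exists_cover_of_complement tautPres_surjective S hS1 hS2
  obtain ⟨n, ρ₀, hn, hρ₀⟩ :=
    exists_monomial_rep hσ₀.1 hσ₀.2.1 (χ₀.comp e.symm.toMonoidHom)
  let q := QuotientGroup.mk' (Subgroup.center (GL (Fin n) ℂ))
  have hker : σ₀.ker ≤ (q.comp ρ₀).ker := fun z hz => by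
    show q (ρ₀ z) = 1
    rw [hρ₀ ⟨z, hz⟩]
    exact (QuotientGroup.eq_one_iff _).mpr
      ((Matrix.GeneralLinearGroup.center_eq_range_scalar (n := Fin n) (R := ℂ)).ge ⟨_, rfl⟩)
  let γ := σ₀.liftOfSurjective hσ₀.1 ⟨q.comp ρ₀, hker⟩
  obtain ⟨ρ, hρ⟩ := hlift n γ
  have hagree := eq_on_commutator_of_center (ρ.comp φ) (ρ₀.comp ψ) fun x => by
    rw [← QuotientGroup.eq]
    show q (ρ (φ x)) = q (ρ₀ (ψ x))
    rw [show q (ρ (φ x)) = γ (σ (φ x)) from DFunLike.congr_fun hρ (φ x),
      ← MonoidHom.comp_apply σ, hφ, ← hσψ, MonoidHom.comp_apply,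
      MonoidHom.liftOfRightInverse_comp_apply]
    rfl
  have h1 := hagree m (multSub_le_commutator _ m.2)
  simp only [MonoidHom.comp_apply] at h1
  rw [show φ m = 1 from congrArg Subtype.val hm, map_one,
    show ψ m = (e m : Γ₀) from (he m).symm, hρ₀] at h1
  simp only [MonoidHom.comp_apply, MulEquiv.toMonoidHom_eq_coe, MonoidHom.coe_coe,
    MulEquiv.symm_apply_apply] at h1
  refine hχ₀ (Units.ext ?_)
  have : Nonempty (Fin n) := ⟨⟨0, hn⟩⟩
  have h2 : (1 : Matrix (Fin n) (Fin n) ℂ) = Matrix.scalar (Fin n) (χ₀ m : ℂ) :=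
    congrArg Units.val h1
  rw [← map_one (Matrix.scalar (Fin n))] at h2
  exact (Matrix.scalar_inj.mp h2).symm

end Cfsg.Agent.H82
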