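import Cfsg.Agent.H82.ResCor
import Cfsg.Agent.H82.ProjLift
import Cfsg.Agent.H25.CharIntegral
import Cfsg.Agent.H26.CharBasic

/-!
The square of the exponent of the multiplier divides the group order.
-/

set_option autoImplicit false

universe u v

open scoped ComplexConjugate
open Module

namespace Cfsg.Agent.H82

/-- The degree squared of an irreducible representation is at most the index of a subgroup
acting by scalars. -/
theorem sq_finrank_mul_card_le {Γ : Type u} [Group Γ] [Finite Γ] {V : Type v} [AddCommGroup V]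
    [Module ℂ V] [FiniteDimensional ℂ V] (ρ : Representation ℂ Γ V) [ρ.IsIrreducible]
    (Z : Subgroup Γ) (hZ : ∀ z ∈ Z, ∃ c : ℂ, ρ z = c • (LinearMap.id : V →ₗ[ℂ] V)) :
    finrank ℂ V ^ 2 * Nat.card Z ≤ Nat.card Γ := by
  classical
  have : Fintype Γ := Fintype.ofFinite Γ
  have hd : finrank ℂ V ≠ 0 := (H26.finrank_pos_of_isIrreducible ρ).ne'
  have hterm : ∀ g : Γ, ρ.character g * ρ.character g⁻¹ = (Complex.normSq (ρ.character g) : ℂ) :=
    fun g => by rw [H26.char_inv_eq_conj, Complex.mul_conj]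
  have hsum : ∑ g, Complex.normSq (ρ.character g) = (Nat.card Γ : ℝ) := by
    have h := H25.sum_char_mul_char_inv ρ
    rw [Finset.sum_congr rfl fun g _ => hterm g] at h
    exact_mod_cast h
  have hval : ∀ z ∈ Z, Complex.normSq (ρ.character z) = (finrank ℂ V : ℝ) ^ 2 := by
    intro z hz
    obtain ⟨c, hc⟩ := hZ z hz
    obtain ⟨c', hc'⟩ := hZ z⁻¹ (inv_mem hz)
    have hcc : c * c' = 1 := by
      have h1 : ρ (z * z⁻¹) = (c * c') • (LinearMap.id : V →ₗ[ℂ] V) := by
        rw [map_mul, hc, hc', smul_mul_smul_comm]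
        rfl
      rw [mul_inv_cancel, map_one] at h1
      have h2 := congrArg (LinearMap.trace ℂ V) h1
      rw [LinearMap.trace_one, map_smul, LinearMap.trace_id, smul_eq_mul] at h2
      exact (mul_eq_right₀ (Nat.cast_ne_zero.mpr hd)).mp h2.symm
    have e1 : ρ.character z = c * finrank ℂ V := by
      show LinearMap.trace ℂ V (ρ z) = _
      rw [hc, map_smul, LinearMap.trace_id, smul_eq_mul]
    have e2 : ρ.character z⁻¹ = c' * finrank ℂ V := by
      show LinearMap.trace ℂ V (ρ z⁻¹) = _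
      rw [hc', map_smul, LinearMap.trace_id, smul_eq_mul]
    have h := hterm z
    rw [e2] at h
    have h' : (Complex.normSq (ρ.character z) : ℂ) = (finrank ℂ V : ℂ) ^ 2 := by
      rw [← h, e1, mul_mul_mul_comm, hcc, one_mul, sq]
    exact_mod_cast h'
  have hle : (finrank ℂ V : ℝ) ^ 2 * (Nat.card Z : ℝ) ≤ (Nat.card Γ : ℝ) := by
    rw [← hsum]
    calc (finrank ℂ V : ℝ) ^ 2 * (Nat.card Z : ℝ)
        = ∑ g ∈ Finset.univ.filter (fun g => g ∈ Z), Complex.normSq (ρ.character g) := by
          rw [Finset.sum_congr rfl fun g hg => hval g (Finset.mem_filter.mp hg).2,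
            Finset.sum_const, nsmul_eq_mul, mul_comm]
          congr 2
          rw [← Fintype.card_subtype, ← Nat.card_eq_fintype_card]
      _ ≤ ∑ g, Complex.normSq (ρ.character g) :=
          Finset.sum_le_sum_of_subset_of_nonneg (Finset.filter_subset _ _)
            fun g _ _ => Complex.normSq_nonneg _
  exact_mod_cast hle

/-- The order of a central element of a stem kernel has square at most the base order. -/
theorem sq_orderOf_le {P : Type u} [Group P] {Γ : Type v} [Group Γ] [Finite Γ] {σ : Γ →* P}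
    (hσ : Cfsg.IsStemExtension σ) (z : σ.ker) : orderOf z ^ 2 ≤ Nat.card P := by
  classical
  have : Finite P := Finite.of_surjective σ hσ.1
  let _ : CommGroup σ.ker :=
    { (inferInstance : Group σ.ker) with
      mul_comm := fun a b => Subtype.ext (Subgroup.mem_center_iff.mp (hσ.2.1 b.2) a.1) }
  have : NeZero (orderOf z) := ⟨(orderOf_pos z).ne'⟩
  -- a character faithful on `z`
  obtain ⟨χ, hχ⟩ : ∃ χ : σ.ker →* ℂˣ, orderOf (χ z) = orderOf z := by
    let Y := Subgroup.zpowers z
    obtain ⟨ζ, hζ⟩ := HasEnoughRootsOfUnity.exists_primitiveRoot ℂ (orderOf z)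
    let u : ℂˣ := hζ.toRootsOfUnity.1
    have hu : orderOf u = orderOf z := by
      rw [← orderOf_units]
      exact hζ.eq_orderOf.symm
    let f0 : Y →* ℂˣ := monoidHomOfForallMemZpowers (g := (⟨z, Subgroup.mem_zpowers z⟩ : Y))
      (fun x => by
        obtain ⟨j, hj⟩ := x.2
        exact ⟨j, Subtype.ext hj⟩) (g' := u) (by rw [Subgroup.orderOf_mk]; exact hu.dvd)
    obtain ⟨χ, hχ⟩ := MonoidHom.domRestrict_surjective ℂ Y f0
    refine ⟨χ, ?_⟩
    have h1 : χ z = u := by
      have := DFunLike.congr_fun hχ (⟨z, Subgroup.mem_zpowers z⟩ : Y)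
      exact this.trans (monoidHomOfForallMemZpowers_apply_gen _ _)
    rw [h1, hu]
  obtain ⟨n, R, hn, hR⟩ := exists_monomial_rep hσ.1 hσ.2.1 χ
  let L : Representation ℂ Γ (Fin n → ℂ) :=
    MonoidHom.comp (Matrix.toLinAlgEquiv' : Matrix (Fin n) (Fin n) ℂ ≃ₐ[ℂ] _).toAlgHom.toRingHom.toMonoidHom
      ((Units.coeHom _).comp R)
  have hL : ∀ w : σ.ker, ∀ v, L w v = (χ w : ℂ) • v := by
    intro w v
    show Matrix.toLinAlgEquiv' (R w : Matrix (Fin n) (Fin n) ℂ) v = _
    rw [hR, Matrix.toLinAlgEquiv'_apply]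
    show Matrix.mulVec (Matrix.scalar (Fin n) (χ w : ℂ)) v = _
    ext i
    simp [Matrix.scalar_apply, Matrix.mulVec_diagonal]
  have : Nonempty (Fin n) := ⟨⟨0, hn⟩⟩
  obtain ⟨U, hU⟩ := H26.exists_irreducible_sub L
  have hUscal : ∀ w : σ.ker,
      U.toRepresentation w = (χ w : ℂ) • (LinearMap.id : U.toSubmodule →ₗ[ℂ] U.toSubmodule) :=
    fun w => LinearMap.ext fun v => Subtype.ext (hL w v.1)
  let d := finrank ℂ U.toSubmodule
  have hd : d ≠ 0 := (H26.finrank_pos_of_isIrreducible U.toRepresentation).ne'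
  -- the determinant is trivial on the commutator subgroup
  have hdet : (χ z : ℂ) ^ d = 1 := by
    let D : Γ →* ℂˣ := ((LinearMap.det : (U.toSubmodule →ₗ[ℂ] U.toSubmodule) →* ℂ).comp
      U.toRepresentation).toHomUnits
    have h1 : D (z : Γ) = 1 := Abelianization.commutator_subset_ker D (hσ.2.2 z.2)
    have h2 : LinearMap.det (U.toRepresentation (z : Γ)) = 1 := congrArg Units.val h1
    rwa [hUscal, LinearMap.det_smul, LinearMap.det_id, mul_one] at h2
  have hdvd : orderOf z ∣ d := by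
    rw [← hχ]
    exact orderOf_dvd_of_pow_eq_one (Units.ext (by rw [Units.val_pow_eq_pow_val]; exact hdet))
  have hbound := sq_finrank_mul_card_le U.toRepresentation σ.ker fun w hw => ⟨_, hUscal ⟨w, hw⟩⟩
  have hcard : Nat.card Γ = Nat.card P * Nat.card σ.ker := by
    rw [← σ.ker.card_mul_index, Subgroup.index_ker, MonoidHom.range_eq_top.mpr hσ.1,
      Subgroup.card_top, mul_comm]
  rw [hcard] at hbound
  calc orderOf z ^ 2 ≤ d ^ 2 := Nat.pow_le_pow_left (Nat.le_of_dvd (Nat.pos_of_ne_zero hd) hdvd) 2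
    _ ≤ Nat.card P := Nat.le_of_mul_le_mul_right hbound Nat.card_pos

/-- The square of the exponent of the multiplier divides the group order. -/
theorem sq_exponent_dvd_card {Q : Type u} [Group Q] [Finite Q] {A : Type v} [CommGroup A]
    (hA : Cfsg.HasSchurMultiplier Q A) : Monoid.exponent A ^ 2 ∣ Nat.card Q := by
  have := HasSchurMultiplier.finite hA
  have hexp : Monoid.exponent A ≠ 0 := Monoid.exponent_ne_zero_of_finite
  refine (Nat.factorization_le_iff_dvd (pow_ne_zero _ hexp) Nat.card_pos.ne').mp fun p => ?_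
  rw [Nat.factorization_pow, Finsupp.smul_apply, smul_eq_mul]
  by_cases hp : p.Prime
  swap
  · simp [Nat.factorization_eq_zero_of_not_prime _ hp]
  have : Fact p.Prime := ⟨hp⟩
  obtain ⟨g, hg⟩ := hp.exists_orderOf_eq_pow_factorization_exponent A
  obtain ⟨P⟩ := (inferInstance : Nonempty (Sylow p Q))
  have hB := hasSchurMultiplier_multiplier (G := (P : Subgroup Q))
  obtain ⟨res, cor, hrc⟩ := HasSchurMultiplier.exists_res_cor hA hB
  obtain ⟨Γ, _, _, σ, hσ, ⟨e⟩⟩ := hB.1
  have hres : orderOf (res g) = orderOf g := by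
    refine Nat.dvd_antisymm (orderOf_map_dvd res g) ?_
    have h1 : g ^ ((P : Subgroup Q).index * orderOf (res g)) = 1 := by
      rw [pow_mul, ← hrc, ← map_pow, pow_orderOf_eq_one, map_one]
    have h2 := orderOf_dvd_of_pow_eq_one h1
    rw [hg] at h2 ⊢
    exact (Nat.Coprime.pow_left _ ((hp.coprime_iff_not_dvd).mpr P.not_dvd_index)).dvd_of_dvd_mul_left h2
  have h3 := sq_orderOf_le hσ (e.symm (res g))
  rw [MulEquiv.orderOf_eq, hres, hg, P.card_eq_multiplicity, ← pow_mul, mul_comm] at h3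
  exact (Nat.pow_le_pow_iff_right hp.one_lt).mp h3

end Cfsg.Agent.H82
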