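import Mathlib
import Cfsg.Agent.H22.Frobenius
import Cfsg.Agent.H22.AbelianSylow
import Cfsg.Agent.H58.FrattiniAction
import Cfsg.Agent.H19.Frattini

/-!
Normal `p`-complements from abelian Sylow subgroups of small rank, and from Sylow `2`-subgroups
with a cyclic subgroup of index two.
-/

set_option autoImplicit false

universe u v

namespace Cfsg.Agent.H82

open Subgroup

variable {G : Type u} [Group G]

/-- The elements killed by `p` in a finite abelian group of rank `d` number at most `p ^ d`. -/
theorem exists_card_pow_ker_le {V : Type v} [CommGroup V] [Finite V] {p : ℕ} (hp : p.Prime) :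
    ∃ e, e ≤ Group.rank V ∧ Nat.card (powMonoidHom p : V →* V).ker = p ^ e := by
  set f : V →* V := powMonoidHom p
  have hq : ∀ x : V ⧸ f.range, x ^ p = 1 := fun x => by
    obtain ⟨v, rfl⟩ := QuotientGroup.mk'_surjective f.range x
    rw [← map_pow]
    exact (QuotientGroup.eq_one_iff _).mpr ⟨v, rfl⟩
  have h2 : f.range.index ∣ p ^ Group.rank (V ⧸ f.range) := card_dvd_exponent_pow_rank' _ hq
  have h3 : Group.rank (V ⧸ f.range) ≤ Group.rank V :=
    Group.rank_le_of_surjective (QuotientGroup.mk' f.range) (QuotientGroup.mk'_surjective _)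
  have h4 : Nat.card f.ker = f.range.index := by
    have hA := f.ker.card_mul_index
    have hB := f.range.card_mul_index
    rw [Subgroup.index_ker] at hA
    rw [← hA, mul_comm] at hB
    exact (Nat.eq_of_mul_eq_mul_right Nat.card_pos hB).symm
  obtain ⟨e, he, he'⟩ := (Nat.dvd_prime_pow hp).mp (h2.trans (pow_dvd_pow p h3))
  exact ⟨e, he, h4.trans he'⟩

/-- An abelian Sylow subgroup of rank `d` whose order is met by no prime divisor of the
`p ^ j - 1`, `j ≤ d`, is centralised by its normaliser. -/
theorem normalizer_le_centralizer_of_rank [Finite G] {p : ℕ} [hp : Fact p.Prime] (P : Sylow p G)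
    (hP : IsMulCommutative (P : Subgroup G))
    (h : ∀ q : ℕ, q.Prime → q ∣ Nat.card G → q ≠ p →
      ∀ j, 1 ≤ j → j ≤ Group.rank (P : Subgroup G) → ¬ q ∣ p ^ j - 1) :
    Subgroup.normalizer (P : Set G) ≤ Subgroup.centralizer (P : Set G) := by
  set N := Subgroup.normalizer (P : Set G)
  set C := (Subgroup.centralizer (P : Set G)).subgroupOf N with hC
  by_contra hle
  have hidx : C.index ≠ 1 := fun he => hle (subgroupOf_eq_top.mp (index_eq_one.mp he))
  obtain ⟨q, hq, hqd⟩ := Nat.exists_prime_and_dvd hidx
  have hqG : q ∣ Nat.card G := hqd.trans ((index_dvd_card C).trans (card_subgroup_dvd_card N))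
  have hPC : (P : Subgroup G).subgroupOf N ≤ C := fun x hx =>
    mem_centralizer_iff.mpr fun y hy =>
      congrArg Subtype.val (hP.is_comm.comm (⟨y, hy⟩ : (P : Subgroup G)) ⟨x, hx⟩)
  have hqp : q ≠ p := fun he => P.not_dvd_index (by
    have h1 : q ∣ (P : Subgroup G).index :=
      (hqd.trans (index_dvd_of_le hPC)).trans (relIndex_dvd_index_of_le le_normalizer)
    rwa [he] at h1)
  have : Fact q.Prime := ⟨hq⟩
  obtain ⟨R⟩ := (inferInstance : Nonempty (Sylow q N))
  have hRC : ¬ (R : Subgroup N) ≤ C := fun hRC => R.not_dvd_index (hqd.trans (index_dvd_of_le hRC))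
  obtain ⟨r, hr, hrC⟩ := SetLike.not_le_iff_exists.mp hRC
  let _ : CommGroup (P : Subgroup G) :=
    { (inferInstance : Group (P : Subgroup G)) with mul_comm := hP.is_comm.comm }
  let φ : R →* MulAut (P : Subgroup G) :=
    (Subgroup.normalizerMonoidHom (P : Subgroup G)).comp (R : Subgroup N).subtype
  let K := (powMonoidHom p : (P : Subgroup G) →* (P : Subgroup G)).ker
  have hK : ∀ (g : R) (x : K), φ g x ∈ K := fun g x => by
    show (φ g x) ^ p = 1
    rw [← map_pow, show (x : (P : Subgroup G)) ^ p = 1 from x.2, map_one]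
  let act : MulAction R K :=
    { smul := fun g x => ⟨φ g x, hK g x⟩
      one_smul := fun x => Subtype.ext (by show φ 1 x.1 = x.1; rw [map_one, MulAut.one_apply])
      mul_smul := fun g g' x => Subtype.ext (by
        show φ (g * g') x.1 = φ g (φ g' x.1)
        rw [map_mul, MulAut.mul_apply]) }
  let F : Subgroup K :=
    { carrier := MulAction.fixedPoints R K
      one_mem' := fun g => Subtype.ext (map_one (φ g))
      mul_mem' := fun {a b} ha hb g => Subtype.ext <| (map_mul (φ g) a.1 b.1).trans
        (congrArg₂ (· * ·) (congrArg Subtype.val (ha g)) (congrArg Subtype.val (hb g)))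
      inv_mem' := fun {a} ha g => Subtype.ext <|
        (map_inv (φ g) a.1).trans (congrArg Inv.inv (congrArg Subtype.val (ha g))) }
  obtain ⟨e, he, hKcard⟩ := exists_card_pow_ker_le (V := (P : Subgroup G)) hp.out
  obtain ⟨i, hi, hFcard⟩ := (Nat.dvd_prime_pow hp.out).mp (hKcard ▸ card_subgroup_dvd_card F)
  have hmod : Nat.card K ≡ Nat.card F [MOD q] := R.2.card_modEq_card_fixedPoints (α := K)
  rw [hKcard, hFcard] at hmod
  have hie : i = e := by
    by_contra hne
    have hlt : i < e := lt_of_le_of_ne hi hne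
    have hd := (Nat.modEq_iff_dvd' (Nat.pow_le_pow_right hp.out.pos hlt.le)).mp hmod.symm
    have hpe : p ^ e - p ^ i = p ^ i * (p ^ (e - i) - 1) := by
      rw [Nat.mul_sub, ← pow_add, mul_one, Nat.add_sub_cancel' hlt.le]
    rw [hpe] at hd
    rcases hq.dvd_mul.mp hd with h1 | h1
    · exact hqp ((Nat.prime_dvd_prime_iff_eq hq hp.out).mp (hq.dvd_of_dvd_pow h1))
    · exact h q hq hqG hqp (e - i) (by omega) (by omega) h1
  have hFtop : F = ⊤ := eq_top_of_card_eq _ (by rw [hFcard, hie, hKcard])
  -- an automorphism fixing the bottom layer pointwise and of order prime to `p` is trivial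
  obtain ⟨k, hk⟩ := R.2 ⟨r, hr⟩
  set α := φ ⟨r, hr⟩
  have hαord : α ^ (q ^ k) = 1 := by rw [← map_pow, hk, map_one]
  have hfix : ∀ w : (P : Subgroup G), w ^ p = 1 → α w = w := fun w hw =>
    congrArg Subtype.val ((hFtop.ge (mem_top (⟨w, hw⟩ : K))) ⟨r, hr⟩)
  have hall : ∀ (n : ℕ) (x : (P : Subgroup G)), x ^ (p ^ n) = 1 → α x = x := by
    intro n
    induction n with
    | zero =>
      intro x hx
      rw [pow_zero, pow_one] at hx
      rw [hx, map_one]
    | succ n ih =>
      intro x hx
      have h1 : α (x ^ p) = x ^ p := ih _ (by rw [← pow_mul, ← pow_succ', hx])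
      obtain ⟨w, hwdef⟩ : ∃ w, w = x⁻¹ * α x := ⟨_, rfl⟩
      have hw : w ^ p = 1 := by
        rw [hwdef, mul_pow, inv_pow, ← map_pow, h1, inv_mul_cancel]
      have hpow : ∀ m : ℕ, (α ^ m) x = x * w ^ m := by
        intro m
        induction m with
        | zero => simp
        | succ m ihm =>
          rw [pow_succ', MulAut.mul_apply, ihm, map_mul, map_pow, hfix w hw, pow_succ', ← mul_assoc]
          congr 1
          rw [hwdef, mul_inv_cancel_left]
      have h2 := hpow (q ^ k)
      rw [hαord, MulAut.one_apply, left_eq_mul] at h2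
      have h3 : w = 1 := orderOf_eq_one_iff.mp (Nat.eq_one_of_dvd_coprimes
        (((Nat.coprime_primes hp.out hq).mpr hqp.symm).pow_right k)
        (orderOf_dvd_of_pow_eq_one hw) (orderOf_dvd_of_pow_eq_one h2))
      rw [hwdef, inv_mul_eq_one] at h3
      exact h3.symm
  refine hrC (mem_centralizer_iff.mpr fun x hx => ?_)
  obtain ⟨n, hn⟩ := P.2 ⟨x, hx⟩
  have h4 : (r : G) * x * (r : G)⁻¹ = x := congrArg Subtype.val (hall n ⟨x, hx⟩ hn)
  calc x * (r : G) = ((r : G) * x * (r : G)⁻¹) * r := by rw [h4]
    _ = r * x := inv_mul_cancel_right _ _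

/-- The transfer consequence of the rank bound. -/
theorem hasNormalPComplement_of_rank [Finite G] {p : ℕ} [Fact p.Prime] (P : Sylow p G)
    (hP : IsMulCommutative (P : Subgroup G))
    (h : ∀ q : ℕ, q.Prime → q ∣ Nat.card G → q ≠ p →
      ∀ j, 1 ≤ j → j ≤ Group.rank (P : Subgroup G) → ¬ q ∣ p ^ j - 1) :
    Cfsg.HasNormalPComplement p G :=
  Cfsg.Agent.H22.burnside_normal_complement P (normalizer_le_centralizer_of_rank P hP h)

/-- Groups all whose Sylow subgroups for non-largest primes are abelian of rank at most two and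
whose order is not divisible by twelve are solvable. -/
theorem isSolvable_of_small_abelian_sylow : ∀ (n : ℕ) (G : Type u) [Group G] [Finite G],
    Nat.card G = n →
    (∀ p : ℕ, p.Prime → p ∣ Nat.card G → (∃ q : ℕ, q.Prime ∧ q ∣ Nat.card G ∧ p < q) →
      ∀ P : Sylow p G, IsMulCommutative (P : Subgroup G) ∧ Group.rank (P : Subgroup G) ≤ 2) →
    ¬ 12 ∣ Nat.card G → Group.IsSolvable G := by
  intro n
  induction n using Nat.strong_induction_on with
  | _ n ih =>
    intro G _ _ hn h h12
    by_cases h1 : Nat.card G = 1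
    · have : Subsingleton G := (Nat.card_eq_one_iff_unique.mp h1).1
      infer_instance
    set p := (Nat.card G).minFac
    have : Fact p.Prime := ⟨Nat.minFac_prime h1⟩
    have hdvd : p ∣ Nat.card G := Nat.minFac_dvd _
    by_cases hlarge : ∀ q : ℕ, q.Prime → q ∣ Nat.card G → q ≤ p
    · have hpG : IsPGroup p G := by
        refine IsPGroup.of_card (n := (Nat.card G).factorization p)
          (Nat.eq_pow_of_factorization_eq_single Nat.card_pos.ne' ?_)
        ext q
        rcases eq_or_ne q p with rfl | hqp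
        · simp
        · rw [Finsupp.single_eq_of_ne hqp]
          by_contra hne
          have hq : q ∈ (Nat.card G).primeFactors :=
            Nat.support_factorization _ ▸ Finsupp.mem_support_iff.mpr hne
          obtain ⟨hqp', hqd, -⟩ := Nat.mem_primeFactors.mp hq
          exact hqp (le_antisymm (hlarge q hqp' hqd) (Nat.minFac_le_of_dvd hqp'.two_le hqd))
      have := hpG.isNilpotent
      infer_instance
    push Not at hlarge
    obtain ⟨q₁, hq₁, hq₁d, hpq₁⟩ := hlarge
    obtain ⟨P⟩ := (inferInstance : Nonempty (Sylow p G))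
    obtain ⟨hPab, hPr⟩ := h p Fact.out hdvd ⟨q₁, hq₁, hq₁d, hpq₁⟩ P
    have hpc : Cfsg.HasNormalPComplement p G := by
      refine hasNormalPComplement_of_rank P hPab fun q hq hqG hqp j hj1 hj hd => ?_
      have hlt : p < q := lt_of_le_of_ne (Nat.minFac_le_of_dvd hq.two_le hqG) hqp.symm
      have hp2 := (Fact.out : p.Prime).two_le
      have hsub : ¬ q ∣ p - 1 := fun h => absurd (Nat.le_of_dvd (by omega) h) (by omega)
      rcases (show j = 1 ∨ j = 2 by omega) with rfl | rfl
      · rw [pow_one] at hd
        exact hsub hd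
      · have e : p ^ 2 - 1 = (p + 1) * (p - 1) := by
          rw [← Nat.sq_sub_sq]
        rw [e] at hd
        have hq1 : q = p + 1 := by
          have := Nat.le_of_dvd (by omega) ((hq.dvd_mul.mp hd).resolve_right hsub)
          omega
        rcases (Fact.out : p.Prime).eq_two_or_odd with h2 | hodd
        · have hq3 : q = 3 := by omega
          -- here `|P|` is two, so the rank is one
          have h4 : ¬ 4 ∣ Nat.card G := fun h4 => h12
            (Nat.Coprime.mul_dvd_of_dvd_of_dvd (by norm_num : Nat.Coprime 4 3) h4 (hq3 ▸ hqG))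
          have hPc : IsCyclic (P : Subgroup G) := by
            obtain ⟨a, ha⟩ := P.2.exists_card_eq
            rcases a with _ | _ | a
            · rw [pow_zero] at ha
              have : Subsingleton (P : Subgroup G) := (Nat.card_eq_one_iff_unique.mp ha).1
              exact isCyclic_of_subsingleton
            · exact isCyclic_of_prime_card (p := p) (by rw [ha, pow_one])
            · refine absurd ((show (4 : ℕ) ∣ p ^ (a + 1 + 1) from ?_).trans
                (ha ▸ card_subgroup_dvd_card _)) h4
              rw [h2]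
              exact pow_dvd_pow 2 (show 2 ≤ a + 1 + 1 by omega)
          obtain ⟨g, hg⟩ := hPc.exists_generator
          have hr1 : Group.rank (P : Subgroup G) ≤ 1 := by
            refine (Group.rank_le (S := ({g} : Finset (P : Subgroup G))) ?_).trans
              (Finset.card_singleton g).le
            rw [Finset.coe_singleton, ← Subgroup.zpowers_eq_closure, eq_top_iff]
            exact fun x _ => hg x
          omega
        · rcases hq.eq_two_or_odd with h2 | hodd' <;> omega
    obtain ⟨P', N, hN, hc⟩ := hpc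
    have hPbot : (P' : Subgroup G) ≠ ⊥ := P'.ne_bot_of_dvd_card hdvd
    have hcardmul : Nat.card N * Nat.card (P' : Subgroup G) = Nat.card G := hc.card_mul_card
    have hP1 : 1 < Nat.card (P' : Subgroup G) := by
      rw [Finite.one_lt_card_iff_nontrivial, Subgroup.nontrivial_iff_ne_bot]
      exact hPbot
    have hNlt : Nat.card N < n := by
      rw [← hn, ← hcardmul]
      exact lt_mul_of_one_lt_right Nat.card_pos hP1
    have hidx : N.index = Nat.card (P' : Subgroup G) := hc.symm.index_eq_card
    have hNsolv : Group.IsSolvable N := by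
      refine ih (Nat.card N) hNlt N rfl (fun q hq hqN hlarger S => ?_)
        fun h' => h12 (h'.trans (card_subgroup_dvd_card N))
      have : Fact q.Prime := ⟨hq⟩
      have hqp : q ≠ p := fun e => by
        have h1 := hc.symm.index_eq_card
        have hcop : ¬ p ∣ Nat.card N := fun hd => P'.not_dvd_index (hc.index_eq_card ▸ hd)
        exact hcop (e ▸ hqN)
      obtain ⟨T, hT⟩ := (S.2.map N.subtype).exists_le_sylow
      have hTeq : (S : Subgroup N).map N.subtype = T := by
        refine eq_of_le_of_card_ge hT ?_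
        rw [Subgroup.card_map_of_injective N.subtype_injective]
        refine le_of_eq ?_
        rw [T.card_eq_multiplicity, S.card_eq_multiplicity, ← hcardmul,
          Nat.factorization_mul Nat.card_pos.ne' Nat.card_pos.ne', Finsupp.add_apply]
        obtain ⟨a, ha⟩ := P'.2.exists_card_eq
        rw [ha, (Fact.out : p.Prime).factorization_pow, Finsupp.single_eq_of_ne hqp, add_zero]
      obtain ⟨hTab, hTr⟩ := h q hq (hqN.trans (card_subgroup_dvd_card N))
        (hlarger.imp fun r hr => ⟨hr.1, hr.2.1.trans (card_subgroup_dvd_card N), hr.2.2⟩) T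
      let i : (S : Subgroup N) ≃* (T : Subgroup G) :=
        ((S : Subgroup N).equivMapOfInjective N.subtype N.subtype_injective).trans
          (MulEquiv.subgroupCongr hTeq)
      exact ⟨⟨⟨fun a b => i.injective (by rw [map_mul, map_mul]; exact hTab.is_comm.comm _ _)⟩⟩,
        (Group.rank_congr i).trans_le hTr⟩
    have hQ : Group.IsSolvable (G ⧸ N) := by
      obtain ⟨a, ha⟩ := P'.2.exists_card_eq
      have := (IsPGroup.of_card (G := G ⧸ N) (p := p) (n := a)
        (by rw [← Subgroup.index_eq_card, hidx, ha])).isNilpotent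
      infer_instance
    exact solvable_of_ker_le_range N.subtype (QuotientGroup.mk' N)
      (by rw [QuotientGroup.ker_mk', Subgroup.range_subtype])

/-- A 2-group with a cyclic subgroup of index at most two has Frattini quotient of order at most
four. -/
theorem index_frattini_dvd_four {Q : Type v} [Group Q] [Finite Q] (hQ : IsPGroup 2 Q)
    (C : Subgroup Q) [IsCyclic C] (hC : C.index ≤ 2) : (frattini Q).index ∣ 4 := by
  classical
  have : Fact (Nat.Prime 2) := ⟨Nat.prime_two⟩
  obtain ⟨hc, hp'⟩ := Cfsg.Agent.H19.commutator_pow_mem_frattini hQ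
  obtain ⟨c, hgen⟩ := IsCyclic.exists_generator (α := C)
  have hCle : C ≤ Subgroup.zpowers (c : Q) := fun x hx => by
    obtain ⟨j, hj⟩ := hgen ⟨x, hx⟩
    exact ⟨j, congrArg Subtype.val hj⟩
  obtain ⟨s, hs⟩ : ∃ s : Q, C ⊔ Subgroup.zpowers s = ⊤ := by
    by_cases htop : C = ⊤
    · exact ⟨1, by simp [htop]⟩
    obtain ⟨s, hs⟩ : ∃ s, s ∉ C := by
      by_contra hcon
      push Not at hcon
      exact htop (eq_top_iff.mpr fun x _ => hcon x)
    refine ⟨s, ?_⟩
    have hi : C.index = 2 := by
      have h0 : C.index ≠ 0 := Subgroup.index_ne_zero_of_finite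
      have h1 : C.index ≠ 1 := fun h => htop (Subgroup.index_eq_one.mp h)
      omega
    rw [eq_top_iff]
    intro x _
    by_cases hx : x ∈ C
    · exact mem_sup_left hx
    · have h1 : x * s⁻¹ ∈ C :=
        (Subgroup.mul_mem_iff_of_index_two hi).mpr ⟨fun h => absurd h hx, fun h =>
          absurd ((inv_mem_iff).mp h) hs⟩
      have := Subgroup.mul_mem_sup h1 (Subgroup.mem_zpowers s)
      rwa [inv_mul_cancel_right] at this
  have hgen' : frattini Q ⊔ Subgroup.closure (({(c : Q), s} : Finset Q) : Set Q) = ⊤ := by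
    rw [eq_top_iff, ← hs]
    refine (sup_le (hCle.trans ?_) ?_).trans le_sup_right <;>
      rw [Subgroup.zpowers_le] <;> exact Subgroup.subset_closure (by simp)
  refine (Cfsg.Agent.H19.index_dvd_pow_card hp' hc {(c : Q), s} _ le_rfl hgen').trans ?_
  exact (pow_dvd_pow 2 Finset.card_le_two).trans (by norm_num)

/-- An automorphism of prime order at least five of such a 2-group is trivial. -/
theorem aut_eq_one_of_cyclic_index_two {Q : Type v} [Group Q] [Finite Q] (hQ : IsPGroup 2 Q)
    (C : Subgroup Q) [IsCyclic C] (hC : C.index ≤ 2) {r : ℕ} (hr : r.Prime) (h5 : 5 ≤ r)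
    (e : MulAut Q) (he : e ^ r = 1) : ∀ q, e q = q := by
  have : Fact (Nat.Prime 2) := ⟨Nat.prime_two⟩
  have : Fact r.Prime := ⟨hr⟩
  refine Cfsg.Agent.H58.aut_eq_one_of_trivial_mod_frattini hQ (by omega) e he ?_
  let B := Q ⧸ frattini Q
  have hchar : ∀ f : MulAut Q, frattini Q ≤ (frattini Q).comap f.toMonoidHom := fun f =>
    (Subgroup.characteristic_iff_comap_eq.mp inferInstance f).ge
  let ψ : MulAut Q →* Function.End B :=
    { toFun := fun f b => QuotientGroup.map (frattini Q) (frattini Q) f.toMonoidHom (hchar f) b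
      map_one' := funext fun b => by
        obtain ⟨x, rfl⟩ := QuotientGroup.mk'_surjective (frattini Q) b
        rfl
      map_mul' := fun f g => funext fun b => by
        obtain ⟨x, rfl⟩ := QuotientGroup.mk'_surjective (frattini Q) b
        rfl }
  let σ : Equiv.Perm B := (MonoidHom.toHomPerm (ψ)) e
  have hσr : σ ^ r = 1 := by rw [← map_pow, he, map_one]
  have hcard : Nat.card B ≤ 4 := Nat.le_of_dvd (by norm_num) (index_frattini_dvd_four hQ C hC)
  have hσ : σ = 1 := by
    refine orderOf_eq_one_iff.mp (((Nat.dvd_prime hr).mp (orderOf_dvd_of_pow_eq_one hσr)).resolve_right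
      fun h => ?_)
    have h1 : r ∣ (Nat.card B).factorial := by
      rw [← Nat.card_perm, ← h]
      exact orderOf_dvd_natCard σ
    have h2 := hr.dvd_factorial.mp h1
    omega
  intro x
  have h1 : σ (x : B) = x := by rw [hσ]; rfl
  have h2 : σ (x : B) = ((e x : Q) : B) := rfl
  exact QuotientGroup.eq.mp (h1.symm.trans h2)

/-- A group with a Sylow 2-subgroup having a cyclic subgroup of index two and order prime to
three has a normal 2-complement. -/
theorem hasNormalPComplement_two_of_cyclic_index_two [Finite G] (h3 : ¬ 3 ∣ Nat.card G) {x : G}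
    (P : Sylow 2 G) (hxP : x ∈ (P : Subgroup G))
    (hidx : (Subgroup.zpowers x).relIndex (P : Subgroup G) ≤ 2) :
    Cfsg.HasNormalPComplement 2 G := by
  have : Fact (Nat.Prime 2) := ⟨Nat.prime_two⟩
  refine Cfsg.Agent.H22.hasNormalPComplement_of_frobenius
    (Cfsg.Agent.H22.frobeniusCondition_of_sylow P fun Q hQ g hg hgo => ?_)
  set f : MulAut Q := Q.normalizerMonoidHom ⟨g, hg⟩
  suffices hf : f = 1 by
    refine mem_centralizer_iff.mpr fun y hy => ?_
    have h0 := DFunLike.congr_fun hf (⟨y, hy⟩ : Q)
    have h1 : g * y * g⁻¹ = y := congrArg (Subtype.val : Q → G) h0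
    calc y * g = g * y * g⁻¹ * g := by rw [h1]
      _ = g * y := inv_mul_cancel_right _ _
  by_contra hne
  have hord : orderOf f ∣ orderOf g :=
    (orderOf_map_dvd Q.normalizerMonoidHom ⟨g, hg⟩).trans (Subgroup.orderOf_mk ..).dvd
  obtain ⟨r, hr, hrd⟩ := Nat.exists_prime_and_dvd (fun h => hne (orderOf_eq_one_iff.mp h))
  have hr2 : r ≠ 2 := fun h => by
    subst h
    exact (Nat.prime_two).ne_one (Nat.eq_one_of_dvd_coprimes hgo (hrd.trans hord) dvd_rfl)
  have hr3 : r ≠ 3 := fun h => h3 (h ▸ (hrd.trans hord).trans (orderOf_dvd_natCard g))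
  have h5 : 5 ≤ r := by
    have := hr.two_le
    rcases (show r = 4 ∨ 5 ≤ r by omega) with h | h
    · exact absurd (h ▸ hr) (by norm_num)
    · exact h
  obtain ⟨k, hk⟩ := hrd
  let C : Subgroup Q := (Subgroup.zpowers x).subgroupOf Q
  have : IsCyclic C := isCyclic_of_injective
    ((Q.subtype.comp C.subtype).codRestrict (Subgroup.zpowers x) fun c => c.2)
    fun a b h => Subtype.ext (Subtype.ext (congrArg (fun z : Subgroup.zpowers x => (z : G)) h :))
  have hC : C.index ≤ 2 := by
    refine le_trans ?_ hidx
    exact Subgroup.relIndex_le_of_le_right hQ Subgroup.index_ne_zero_of_finite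
  have hfin : IsPGroup 2 Q := P.2.to_le hQ
  have h6 : f ^ k = 1 := MulEquiv.ext fun q =>
    aut_eq_one_of_cyclic_index_two hfin C hC hr h5 (f ^ k)
      (by rw [← pow_mul, mul_comm, ← hk, pow_orderOf_eq_one]) q
  have h7 := orderOf_dvd_of_pow_eq_one h6
  have hk0 : 0 < k := by
    rcases Nat.eq_zero_or_pos k with h | h
    · rw [h, mul_zero] at hk
      exact absurd hk (orderOf_pos f).ne'
    · exact h
  have := Nat.le_of_dvd hk0 h7
  rw [hk] at this
  have := Nat.mul_le_mul_right k h5
  omega

end Cfsg.Agent.H82
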